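import Cfsg.Agent.S1062
import Cfsg.Agent.S1027
import Cfsg.Agent.H46.RootInst
import Cfsg.Agent.H46.TypeF4

/-!
# Orders of 2-elements in `F₄(q)` and `²F₄(q)`, `q` even
-/

set_option autoImplicit false

namespace Cfsg.Agent.H88.F4TwoElements

open Cfsg.Lie Cfsg.Agent.H46
open scoped Matrix MatrixGroups

variable {D : ChevalleyDatum} (G : Good D) {F : Type*} [Field F]

/-- The heights range over a window of width `2 H`. -/
theorem sub_one_pow_eq_zero {H : ℕ} (hH : ∀ r, r < D.nroots → (G.levJ ∅ r).natAbs ≤ H)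
    {u : GL D.Idx F} (hu : u ∈ D.posUnipotent F) :
    ((u : Matrix D.Idx D.Idx F) - 1) ^ (2 * H + 1) = 0 := by
  have hu' : u ∈ D.unipotentRadical F ∅ := by
    refine Subgroup.closure_mono ?_ hu
    rintro g ⟨r, t, hr, hg⟩
    refine ⟨r, t, hr, fun h => ?_, hg⟩
    refine G.rc_ne_zero hr.1 (funext fun k => ?_)
    exact (G.inRootSub_iff.1 h).2 k (Set.notMem_empty _)
  have h := ((mem_triGroup.1 (G.radical_le_tri hu')).1).pow (2 * H + 1)
  ext a b
  rw [Matrix.zero_apply]
  by_contra hne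
  have hab := h a b hne
  have hrange : ∀ x : D.Idx, ((Sum.elim (fun _ => 0) (fun s => G.levJ ∅ s.val) x : ℤ)).natAbs ≤ H := by
    intro x
    rcases x with i | s
    · simp
    · exact hH s s.2
  have ha := G.lvlJ_spec ∅ a
  have hb := G.lvlJ_spec ∅ b
  have h1 := hrange a
  have h2 := hrange b
  omega

/-- In characteristic two the positive unipotent group has exponent dividing any power of two above `2 H`. -/
theorem pow_two_pow_eq_one [CharP F 2] {H k : ℕ} (hH : ∀ r, r < D.nroots → (G.levJ ∅ r).natAbs ≤ H)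
    (hk : 2 * H + 1 ≤ 2 ^ k) {u : GL D.Idx F} (hu : u ∈ D.posUnipotent F) : u ^ 2 ^ k = 1 := by
  have : Nonempty D.Idx ∨ IsEmpty D.Idx := (isEmpty_or_nonempty _).symm
  rcases this with hne | he
  swap
  · exact Units.ext (Subsingleton.elim _ _)
  have := G
  have h0 : ((u : Matrix D.Idx D.Idx F) - 1) ^ (2 ^ k) = 0 := by
    rw [← Nat.sub_add_cancel hk, pow_add, sub_one_pow_eq_zero G hH hu, mul_zero]
  haveI : CharP (Matrix D.Idx D.Idx F) 2 := Matrix.charP 2
  haveI : Fact (Nat.Prime 2) := ⟨Nat.prime_two⟩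
  rw [sub_pow_char_pow_of_commute 2 k (Commute.one_right _), one_pow, sub_eq_zero] at h0
  exact Units.ext (by rw [Units.val_pow_eq_pow_val, h0, Units.val_one])

theorem f4_heights : ∀ r < 48, ((List.range 4).map fun k => (Cfsg.Agent.H46.tabF4.coord r k)).sum.natAbs ≤ 11 := by
  decide +kernel

theorem f4_nroots : chevF4.nroots = 48 := by decide +kernel

theorem f4_levJ (r : ℕ) (hr : r < chevF4.nroots) : (goodF4.levJ ∅ r).natAbs ≤ 11 := by
  have h := f4_heights r (f4_nroots ▸ hr)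
  have e : goodF4.levJ ∅ r = ((List.range 4).map fun k => (Cfsg.Agent.H46.tabF4.coord r k)).sum := by
    classical
    rw [Good.levJ]
    simp only [Set.mem_empty_iff_false, if_false]
    show ∑ k : Fin 4, Cfsg.Agent.H46.tabF4.coord r k = _
    rw [Fin.sum_univ_four]
    simp [List.range_succ, List.sum_cons]
    ring
  rw [e]; exact h

/-- Elements of 2-power order in `F₄(q)`, `q` even, have order at most 32. -/
theorem orderOf_le_of_two_power {K : Type*} [Field K] [Fintype K] {n : ℕ} (hn : n ≠ 0)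
    (hK : Fintype.card K = 2 ^ n) (x : ↥(chevF4.group K)) {j : ℕ} (hx : orderOf x = 2 ^ j) :
    orderOf x ≤ 32 := by
  haveI : Fact (Nat.Prime 2) := ⟨Nat.prime_two⟩
  haveI : CharP K 2 := charP_of_card_eq_prime_pow hK
  set U : Subgroup ↥(chevF4.group K) := (chevF4.posUnipotent K).subgroupOf (chevF4.group K) with hU
  have hcardU : Nat.card U = (2 ^ n) ^ 24 := by
    rw [hU, Nat.card_congr (Subgroup.subgroupOfEquivOfLe (goodF4.posUnipotent_le_group (F := K))).toEquiv,
      Cfsg.Agent.S1027.result chevF4 (by simp), hK,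
      show chevF4.nroots / 2 = 24 by rw [f4_nroots]]
  have hcardG := Cfsg.Agent.S1062.result (F := K) hK
  have hp : IsPGroup 2 U := IsPGroup.of_card (n := n * 24) (by rw [hcardU, ← pow_mul])
  have hodd : ∀ i, i ≠ 0 → ¬ 2 ∣ (2 ^ n) ^ i - 1 := by
    intro i hi
    have h1 : 2 ∣ (2 ^ n) ^ i := dvd_pow (dvd_pow_self 2 hn) hi
    have h2 : 1 ≤ (2 ^ n) ^ i := Nat.one_le_pow _ _ (by positivity)
    omega
  have hidx : ¬ 2 ∣ U.index := by
    intro h
    have hmul := U.card_mul_index
    rw [hcardU, hcardG] at hmul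
    have e : U.index = ((2 ^ n) ^ 2 - 1) * ((2 ^ n) ^ 6 - 1) * ((2 ^ n) ^ 8 - 1) * ((2 ^ n) ^ 12 - 1) := by
      refine Nat.eq_of_mul_eq_mul_left (show 0 < (2 ^ n) ^ 24 by positivity) (hmul.trans ?_)
      simp only [mul_assoc]
    rw [e] at h
    rcases Nat.prime_two.dvd_mul.1 h with h | h
    · rcases Nat.prime_two.dvd_mul.1 h with h | h
      · rcases Nat.prime_two.dvd_mul.1 h with h | h
        · exact hodd 2 two_ne_zero h
        · exact hodd 6 (by norm_num) h
      · exact hodd 8 (by norm_num) h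
    · exact hodd 12 (by norm_num) h
  let P : Sylow 2 ↥(chevF4.group K) := hp.toSylow hidx
  have hxp : IsPGroup 2 (Subgroup.zpowers x) :=
    IsPGroup.of_card (n := j) (by rw [Nat.card_zpowers, hx])
  obtain ⟨Q, hQ⟩ := hxp.exists_le_sylow
  obtain ⟨g, hg⟩ := MulAction.exists_smul_eq ↥(chevF4.group K) Q P
  have hmem : g * x * g⁻¹ ∈ (P : Subgroup ↥(chevF4.group K)) := by
    rw [← hg, Sylow.coe_subgroup_smul, Subgroup.mem_pointwise_smul_iff_inv_smul_mem]
    simpa [MulAut.smul_def, mul_assoc] using hQ (Subgroup.mem_zpowers x)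
  have h1 : ((g * x * g⁻¹ : ↥(chevF4.group K)) : GL chevF4.Idx K) ^ 2 ^ 5 = 1 :=
    pow_two_pow_eq_one goodF4 f4_levJ (by norm_num) hmem
  have h2 : (g * x * g⁻¹) ^ 32 = 1 := Subtype.ext (by simpa using h1)
  rw [conj_pow, conj_eq_one_iff] at h2
  exact Nat.le_of_dvd (by norm_num) (orderOf_dvd_of_pow_eq_one h2)

/-- `²F₄(q)` lies in `F₄(q)`. -/
theorem twistedF4_le (K : Type*) [Field K] (e : ℕ) : twistedF4 K e ≤ chevF4.group K := by
  refine (Subgroup.closure_le _).2 ?_
  rintro g ⟨w, -, hg⟩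
  have : g = (w.map fun p => goodF4.xg p.1 p.2).prod := by
    apply Units.ext
    rw [hg, ChevalleyDatum.wordMat]
    clear hg
    induction w with
    | nil => simp
    | cons p w ih => simp [List.map_cons, List.prod_cons, ih]
  rw [this]
  refine list_prod_mem fun y hy => ?_
  obtain ⟨p, -, rfl⟩ := List.mem_map.1 hy
  exact goodF4.xg_mem_group _ _

theorem main {K : Type*} [Field K] [Fintype K] (m : ℕ) (hK : Fintype.card K = 2 ^ (2 * m + 1))
    (x : ↥(twistedF4 K (2 ^ m))) (hx : ∃ j : ℕ, orderOf x = 2 ^ j) : orderOf x ≤ 32 := by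
  obtain ⟨j, hj⟩ := hx
  have e := orderOf_injective (Subgroup.inclusion (twistedF4_le K (2 ^ m))) (Subgroup.inclusion_injective _) x
  rw [← e] at hj ⊢
  exact orderOf_le_of_two_power (by omega) hK _ hj

end Cfsg.Agent.H88.F4TwoElements
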