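import Mathlib

/-! Fitting's theorem with classes. -/

namespace Cfsg.Agent.H88

open Subgroup
open scoped commutatorElement

/-- Lower central series of a normal subgroup shifted by one, starting at the whole group. -/
def fittingSeries {G : Type*} [Group G] (H : Subgroup G) : ℕ → Subgroup G
  | 0 => ⊤
  | i + 1 => H.lowerCentralSeries i

instance fittingSeries_normal {G : Type*} [Group G] (H : Subgroup G) [H.Normal] :
    ∀ i, (fittingSeries H i).Normal
  | 0 => inferInstanceAs (⊤ : Subgroup G).Normal
  | 1 => by simpa [fittingSeries] using ‹H.Normal›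
  | i + 2 => by
    have := fittingSeries_normal H (i + 1)
    simp only [fittingSeries] at this
    show (H.lowerCentralSeries (i + 1)).Normal
    rw [Subgroup.lowerCentralSeries_succ]
    infer_instance

theorem commutator_fittingSeries {G : Type*} [Group G] (H : Subgroup G) [H.Normal] :
    ∀ i, ⁅fittingSeries H i, H⁆ ≤ fittingSeries H (i + 1)
  | 0 => by simpa [fittingSeries] using commutator_le_right (⊤ : Subgroup G) H
  | i + 1 => by
    show ⁅H.lowerCentralSeries i, H⁆ ≤ H.lowerCentralSeries (i + 1)
    rw [Subgroup.lowerCentralSeries_succ]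

/-- Fitting: the join of normal subgroups of classes `c` and `d` has class at most `c + d`. -/
theorem lowerCentralSeries_sup_eq_bot {G : Type*} [Group G] (H K : Subgroup G) [H.Normal] [K.Normal]
    (c d : ℕ) (hH : H.lowerCentralSeries c = ⊥) (hK : K.lowerCentralSeries d = ⊥) :
    (H ⊔ K).lowerCentralSeries (c + d) = ⊥ := by
  let M : ℕ → Subgroup G := fun n =>
    ⨆ i : Fin (n + 2), fittingSeries H i ⊓ fittingSeries K (n + 1 - i)
  have hM : ∀ n, (M n).Normal := fun n => normalizer_eq_top_iff.1 (top_unique fun g _ => by
    rw [mem_normalizer_iff]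
    intro x
    have hle : ∀ g : G, (M n).map (MulAut.conj g).toMonoidHom ≤ M n := fun g => by
      rw [Subgroup.map_iSup]
      refine iSup_mono fun i => ?_
      rintro _ ⟨y, hy, rfl⟩
      exact Subgroup.Normal.conj_mem inferInstance y hy g
    constructor
    · intro hx
      exact hle g ⟨x, hx, rfl⟩
    · intro hx
      have := hle g⁻¹ ⟨_, hx, rfl⟩
      simpa [mul_assoc] using this)
  have hpiece : ∀ (n i : ℕ), i ≤ n + 1 →
      fittingSeries H i ⊓ fittingSeries K (n + 1 - i) ≤ M n := fun n i hi =>
    le_iSup (fun i : Fin (n + 2) => fittingSeries H i ⊓ fittingSeries K (n + 1 - i)) ⟨i, by omega⟩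
  have key : ∀ n, (H ⊔ K).lowerCentralSeries n ≤ M n := by
    intro n
    induction n with
    | zero =>
      rw [Subgroup.lowerCentralSeries_zero]
      refine sup_le ((le_inf ?_ ?_).trans (hpiece 0 1 le_rfl)) ((le_inf ?_ ?_).trans (hpiece 0 0 zero_le_one))
      · simp [fittingSeries]
      · simp [fittingSeries]
      · simp [fittingSeries]
      · simp [fittingSeries]
    | succ n ih =>
      rw [Subgroup.lowerCentralSeries_succ]
      refine (commutator_mono ih le_rfl).trans ?_
      haveI := hM (n + 1)
      rw [← QuotientGroup.ker_mk' (M (n + 1)), ← Subgroup.map_eq_bot_iff, map_commutator,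
        commutator_eq_bot_iff_le_centralizer, map_le_iff_le_comap]
      refine iSup_le fun i => ?_
      rw [← map_le_iff_le_comap, le_centralizer_iff, map_le_iff_le_comap]
      have hi : (i : ℕ) ≤ n + 1 := by omega
      refine sup_le ?_ ?_
      all_goals
        rw [← map_le_iff_le_comap, le_centralizer_iff, ← commutator_eq_bot_iff_le_centralizer,
          ← map_commutator, Subgroup.map_eq_bot_iff, QuotientGroup.ker_mk']
      · refine le_trans ?_ (hpiece (n + 1) (i + 1) (by omega))
        rw [show n + 1 + 1 - ((i : ℕ) + 1) = n + 1 - i by omega]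
        exact le_inf ((commutator_mono inf_le_left le_rfl).trans (commutator_fittingSeries H i))
          ((commutator_mono inf_le_right le_rfl).trans (commutator_le_left _ _))
      · refine le_trans ?_ (hpiece (n + 1) i (by omega))
        rw [show n + 1 + 1 - (i : ℕ) = n + 1 - i + 1 by omega]
        exact le_inf ((commutator_mono inf_le_left le_rfl).trans (commutator_le_left _ _))
          ((commutator_mono inf_le_right le_rfl).trans (commutator_fittingSeries K _))
  rw [eq_bot_iff]
  refine (key _).trans (iSup_le fun i => ?_)
  by_cases hi : c + 1 ≤ (i : ℕ)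
  · refine inf_le_left.trans ?_
    obtain ⟨j, hj⟩ := Nat.exists_eq_add_of_le hi
    rw [hj, show c + 1 + j = c + j + 1 by omega, ← hH]
    exact H.lowerCentralSeries_antitone (Nat.le_add_right c j)
  · refine inf_le_right.trans ?_
    obtain ⟨j, hj⟩ := Nat.exists_eq_add_of_le (show d + 1 ≤ c + d + 1 - i by omega)
    rw [hj, show d + 1 + j = d + j + 1 by omega, ← hK]
    exact K.lowerCentralSeries_antitone (Nat.le_add_right d j)

end Cfsg.Agent.H88
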