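import Mathlib

/-! Class numbers of symmetric and alternating groups. -/

namespace Cfsg.Agent.H88

open Equiv Equiv.Perm

/-- Conjugacy classes of `S_n` are at most as many as partitions of `n`. -/
theorem card_conjClasses_perm_le (n : ℕ) :
    Nat.card (ConjClasses (Perm (Fin n))) ≤ Nat.card (Nat.Partition (Fintype.card (Fin n))) := by
  refine Nat.card_le_card_of_injective
    (Quotient.lift (fun σ : Perm (Fin n) => σ.partition) fun a b h => partition_eq_of_isConj.1 h) ?_
  intro a b
  refine Quotient.inductionOn₂ a b fun σ τ h => Quotient.sound (partition_eq_of_isConj.2 h)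

theorem card_partition_succ_le (n : ℕ) (hn : 1 ≤ n) :
    Nat.card (Nat.Partition (n + 1)) ≤ 2 * Nat.card (Nat.Partition n) := by
  classical
  have hex : ∀ P : Nat.Partition (n + 1), ∃ x, x ∈ P.parts := by
    intro P
    refine Multiset.exists_mem_of_ne_zero fun h => ?_
    have := P.parts_sum
    simp [h] at this
  let s : Nat.Partition (n + 1) → ℕ := fun P => Nat.find (hex P)
  have hs : ∀ P, s P ∈ P.parts := fun P => Nat.find_spec (hex P)
  have hsmin : ∀ P, ∀ x ∈ P.parts, s P ≤ x := fun P x hx => Nat.find_min' (hex P) hx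
  let f : Nat.Partition (n + 1) → Bool × Nat.Partition n := fun P =>
    if h : 1 ∈ P.parts then
      (true, ⟨P.parts.erase 1, fun hi => P.parts_pos (Multiset.mem_of_mem_erase hi), by
        have := P.parts_sum
        rw [← Multiset.cons_erase h, Multiset.sum_cons] at this
        omega⟩)
    else
      (false, ⟨(s P - 1) ::ₘ P.parts.erase (s P), fun {i} hi => by
        rcases Multiset.mem_cons.1 hi with rfl | hi
        · have h0 := P.parts_pos (hs P)
          have : s P ≠ 1 := fun e => by
            have h2 := hs P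
            rw [e] at h2
            exact h h2
          omega
        · exact P.parts_pos (Multiset.mem_of_mem_erase hi), by
        have h1 := P.parts_sum
        rw [← Multiset.cons_erase (hs P), Multiset.sum_cons] at h1
        have h0 := P.parts_pos (hs P)
        rw [Multiset.sum_cons]
        omega⟩)
  have hf : Function.Injective f := by
    intro P Q hPQ
    by_cases hP : 1 ∈ P.parts <;> by_cases hQ : 1 ∈ Q.parts <;>
      simp only [f, dif_pos, dif_neg, hP, hQ, not_false_eq_true, Prod.ext_iff, Nat.Partition.ext_iff,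
        Bool.false_eq_true, Bool.true_eq_false, false_and, true_and] at hPQ
    · rw [Nat.Partition.ext_iff, ← Multiset.cons_erase hP, ← Multiset.cons_erase hQ, hPQ]
    · have e1 : s P - 1 = s Q - 1 := by
        have h1 : s P - 1 ∈ (s Q - 1) ::ₘ Q.parts.erase (s Q) := hPQ ▸ Multiset.mem_cons_self _ _
        have h2 : s Q - 1 ∈ (s P - 1) ::ₘ P.parts.erase (s P) := hPQ.symm ▸ Multiset.mem_cons_self _ _
        rcases Multiset.mem_cons.1 h1 with h1 | h1 <;> rcases Multiset.mem_cons.1 h2 with h2 | h2
        · exact h1
        · exact h1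
        · exact h2.symm
        · have := hsmin Q _ (Multiset.mem_of_mem_erase h1)
          have := hsmin P _ (Multiset.mem_of_mem_erase h2)
          omega
      have e2 : s P = s Q := by
        have := P.parts_pos (hs P)
        have := Q.parts_pos (hs Q)
        omega
      rw [e1, Multiset.cons_inj_right] at hPQ
      rw [Nat.Partition.ext_iff, ← Multiset.cons_erase (hs P), ← Multiset.cons_erase (hs Q), e2,
        ← hPQ, e2]
  calc Nat.card (Nat.Partition (n + 1)) ≤ Nat.card (Bool × Nat.Partition n) :=
        Nat.card_le_card_of_injective f hf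
    _ = 2 * Nat.card (Nat.Partition n) := by rw [Nat.card_prod]; simp

theorem card_partition_five_le : Nat.card (Nat.Partition 5) ≤ 8 := by
  classical
  have hsum : ∀ P : Nat.Partition 5, P.parts.count 1 + 2 * P.parts.count 2 + 3 * P.parts.count 3 +
      4 * P.parts.count 4 + 5 * P.parts.count 5 = 5 := by
    intro P
    have h1 : P.parts.sum = ∑ i ∈ Finset.range 6, P.parts.count i • i := by
      rw [Finset.sum_multiset_count]
      refine Finset.sum_subset (fun i hi => Finset.mem_range.2
        (Nat.lt_succ_of_le (P.le_of_mem_parts (Multiset.mem_toFinset.1 hi)))) fun i _ hi => ?_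
      rw [Multiset.count_eq_zero.2 (fun h => hi (Multiset.mem_toFinset.2 h)), zero_smul]
    rw [P.parts_sum] at h1
    simp only [Finset.sum_range_succ, Finset.sum_range_zero, smul_eq_mul] at h1
    omega
  let T := {c : Fin 3 × Fin 2 × Fin 2 × Fin 2 // 2 * c.1.val + 3 * c.2.1.val + 4 * c.2.2.1.val + 5 * c.2.2.2.val ≤ 5}
  have hT : Fintype.card T ≤ 8 := by decide +kernel
  rw [← Nat.card_eq_fintype_card] at hT
  refine le_trans ?_ hT
  refine Nat.card_le_card_of_injective (fun P : Nat.Partition 5 => (⟨(⟨P.parts.count 2, by have := hsum P; omega⟩,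
    ⟨P.parts.count 3, by have := hsum P; omega⟩, ⟨P.parts.count 4, by have := hsum P; omega⟩,
    ⟨P.parts.count 5, by have := hsum P; omega⟩), by have := hsum P; simp only; omega⟩ : T)) ?_
  intro P Q h
  simp only [T, Subtype.ext_iff, Prod.ext_iff, Fin.ext_iff] at h
  refine Nat.Partition.ext (Multiset.ext.2 fun i => ?_)
  by_cases hi : 1 ≤ i ∧ i ≤ 5
  · have := hsum P
    have := hsum Q
    obtain ⟨hi1, hi5⟩ := hi
    interval_cases i <;> omega
  · have : ∀ R : Nat.Partition 5, R.parts.count i = 0 := fun R =>
      Multiset.count_eq_zero.2 fun h => hi ⟨R.parts_pos h, R.le_of_mem_parts h⟩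
    rw [this P, this Q]

theorem card_partition_le_two_pow (n : ℕ) (hn : 5 ≤ n) :
    Nat.card (Nat.Partition n) ≤ 2 ^ (n - 2) := by
  induction n, hn using Nat.le_induction with
  | base => exact card_partition_five_le
  | succ m hm ih =>
    refine (card_partition_succ_le m (by omega)).trans ?_
    rw [show m + 1 - 2 = m - 2 + 1 by omega, pow_succ']
    exact Nat.mul_le_mul_left _ ih

/-- `A_n` has fewer classes than `S_n`. -/
theorem card_conjClasses_alternating_lt (n : ℕ) (hn : 5 ≤ n) :
    Nat.card (ConjClasses (alternatingGroup (Fin n))) < Nat.card (ConjClasses (Perm (Fin n))) := by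
  classical
  let A := alternatingGroup (Fin n)
  let π : ConjClasses A → ConjClasses (Perm (Fin n)) := ConjClasses.map A.subtype
  -- the cycle type of a class
  let ct : ConjClasses (Perm (Fin n)) → Multiset ℕ :=
    Quotient.lift (fun σ : Perm (Fin n) => σ.cycleType) fun a b h => isConj_iff_cycleType_eq.1 h
  have hctinj : Function.Injective ct := by
    intro a b
    exact Quotient.inductionOn₂ a b fun σ τ h => Quotient.sound (isConj_iff_cycleType_eq.2 h)
  -- a representative of each class in the image
  let base : ConjClasses (Perm (Fin n)) → A := fun c =>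
    if h : ∃ σ : A, ConjClasses.mk (σ : Perm (Fin n)) = c then h.choose else 1
  have hbase : ∀ σ : A, ConjClasses.mk ((base (ConjClasses.mk (σ : Perm (Fin n))) : A) : Perm (Fin n)) =
      ConjClasses.mk (σ : Perm (Fin n)) := by
    intro σ
    have h : ∃ τ : A, ConjClasses.mk (τ : Perm (Fin n)) = ConjClasses.mk (σ : Perm (Fin n)) := ⟨σ, rfl⟩
    simp only [base, dif_pos h]
    exact h.choose_spec
  -- a fixed odd permutation
  let t : Perm (Fin n) := Equiv.swap ⟨0, by omega⟩ ⟨1, by omega⟩
  have ht : sign t = -1 := Perm.sign_swap (by simp [Fin.ext_iff])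
  have hfib : ∀ (σ τ : A), IsConj (σ : Perm (Fin n)) (τ : Perm (Fin n)) → ¬ IsConj σ τ →
      IsConj (⟨t * σ * t⁻¹, by rw [mem_alternatingGroup, map_mul, map_mul, ht, mem_alternatingGroup.1 σ.2, map_inv, ht]; simp⟩ : A) τ ∧
      Subgroup.centralizer ({(σ : Perm (Fin n))} : Set (Perm (Fin n))) ≤ alternatingGroup (Fin n) := by
    intro σ τ hc hnc
    obtain ⟨h, hh⟩ := isConj_iff.1 hc
    have hodd : sign h = -1 := by
      rcases Int.units_eq_one_or (sign h) with he | he
      · exact absurd (isConj_iff.2 ⟨(⟨h, mem_alternatingGroup.2 he⟩ : A), Subtype.ext hh⟩) hnc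
      · exact he
    refine ⟨isConj_iff.2 ⟨(⟨h * t⁻¹, mem_alternatingGroup.2 (by rw [map_mul, map_inv, ht, hodd]; simp)⟩ : A),
      Subtype.ext ?_⟩, ?_⟩
    · push_cast
      rw [← hh]; group
    · intro z hz
      rw [mem_alternatingGroup]
      rcases Int.units_eq_one_or (sign z) with he | he
      · exact he
      · refine absurd (isConj_iff.2 ⟨(⟨h * z, mem_alternatingGroup.2 (by rw [map_mul, hodd, he]; simp)⟩ : A),
          Subtype.ext ?_⟩) hnc
        have hzs : z * σ = σ * z := by
          have := Subgroup.mem_centralizer_iff.1 hz (σ : Perm (Fin n)) rfl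
          exact this.symm
        push_cast
        rw [← hh]
        calc h * z * σ * (h * z)⁻¹ = h * (z * σ) * z⁻¹ * h⁻¹ := by group
          _ = _ := by rw [hzs]; group
  -- the associated odd cycle type
  let big : Multiset ℕ → ℕ := fun m => m.fold max 0
  let m' : Multiset ℕ → Multiset ℕ := fun m => (big m - 1) ::ₘ m.erase (big m)
  have hbig : ∀ σ : Perm (Fin n), Subgroup.centralizer ({σ} : Set (Perm (Fin n))) ≤ alternatingGroup (Fin n) →
      big σ.cycleType ∈ σ.cycleType ∧ (∀ c ∈ σ.cycleType, Odd c) ∧ n - 1 ≤ σ.cycleType.sum ∧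
        3 ≤ big σ.cycleType ∧ σ.cycleType.sum ≤ n := by
    intro σ hσ
    obtain ⟨ho, hf, -⟩ := Equiv.Perm.centralizer_le_alternating_iff.1 hσ
    rw [Fintype.card_fin] at hf
    have hle : σ.cycleType.sum ≤ n := by
      rw [sum_cycleType]
      exact (Finset.card_le_univ _).trans_eq (Fintype.card_fin n)
    have hne : σ.cycleType ≠ 0 := fun h => by rw [h] at hf; simp at hf; omega
    have hmem : ∀ (m : Multiset ℕ), m ≠ 0 → big m ∈ m := by
      intro m
      induction m using Multiset.induction with
      | empty => simp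
      | cons a m ih =>
        intro _
        simp only [big, Multiset.fold_cons_left]
        rcases eq_or_ne m 0 with rfl | hm
        · simp
        rcases max_choice a (m.fold max 0) with h | h <;> rw [h]
        · exact Multiset.mem_cons_self _ _
        · exact Multiset.mem_cons_of_mem (ih hm)
    have hb := hmem _ hne
    refine ⟨hb, ho, by omega, ?_, hle⟩
    obtain ⟨k, hk⟩ := ho _ hb
    have := two_le_of_mem_cycleType hb
    omega
  have hodd' : ∀ σ : Perm (Fin n), Subgroup.centralizer ({σ} : Set (Perm (Fin n))) ≤ alternatingGroup (Fin n) →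
      ∃ ρ : Perm (Fin n), ρ.cycleType = m' σ.cycleType ∧ sign ρ = -1 := by
    intro σ hσ
    obtain ⟨hb, ho, hlow, h3, hle⟩ := hbig σ hσ
    have hsum : (m' σ.cycleType).sum + 1 = σ.cycleType.sum := by
      have h1 : σ.cycleType.sum = big σ.cycleType + (σ.cycleType.erase (big σ.cycleType)).sum := by
        conv_lhs => rw [← Multiset.cons_erase hb, Multiset.sum_cons]
      simp only [m', Multiset.sum_cons]
      omega
    obtain ⟨ρ, hρ⟩ := (Equiv.Perm.exists_with_cycleType_iff (α := Fin n) (m := m' σ.cycleType)).2
      ⟨by rw [Fintype.card_fin]; omega, fun a ha => by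
        rcases Multiset.mem_cons.1 ha with rfl | ha
        · omega
        · exact two_le_of_mem_cycleType (Multiset.mem_of_mem_erase ha)⟩
    refine ⟨ρ, hρ, ?_⟩
    have hcard : (m' σ.cycleType).card = σ.cycleType.card := by
      simp only [m', Multiset.card_cons, Multiset.card_erase_of_mem hb, Nat.pred_eq_sub_one]
      have : 0 < σ.cycleType.card := Multiset.card_pos_iff_exists_mem.2 ⟨_, hb⟩
      omega
    have heven : Even (σ.cycleType.sum + σ.cycleType.card) := by
      have : ∀ m : Multiset ℕ, (∀ c ∈ m, Odd c) → Even (m.sum + m.card) := by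
        intro m
        induction m using Multiset.induction with
        | empty => simp
        | cons a m ih =>
          intro h
          have h1 := h a (Multiset.mem_cons_self _ _)
          have h2 := ih fun c hc => h c (Multiset.mem_cons_of_mem hc)
          rw [Multiset.sum_cons, Multiset.card_cons, show a + m.sum + (m.card + 1) = (a + 1) + (m.sum + m.card) by ring]
          exact (Nat.even_add_one.2 (Nat.not_even_iff_odd.2 h1)).add h2
      exact this _ ho
    rw [sign_of_cycleType, hρ]
    refine Odd.neg_one_pow ?_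
    rw [hcard, ← Nat.not_even_iff_odd]
    intro he
    rw [← hsum] at heven
    rw [show (m' σ.cycleType).sum + 1 + σ.cycleType.card = (m' σ.cycleType).sum + σ.cycleType.card + 1 by ring,
      Nat.even_add_one] at heven
    exact heven he
  let g : A → ConjClasses (Perm (Fin n)) := fun σ =>
    if h : Subgroup.centralizer ({(σ : Perm (Fin n))} : Set (Perm (Fin n))) ≤ alternatingGroup (Fin n) then
      ConjClasses.mk (hodd' σ h).choose else 1
  let F : ConjClasses A → ConjClasses (Perm (Fin n)) := fun a =>
    if a = ConjClasses.mk (base (π a)) then π a else g (base (π a))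
  have hF2 : ∀ τ : A, ConjClasses.mk τ ≠ ConjClasses.mk (base (π (ConjClasses.mk τ))) →
      IsConj ((base (π (ConjClasses.mk τ)) : A) : Perm (Fin n)) (τ : Perm (Fin n)) ∧
      ¬ IsConj (base (π (ConjClasses.mk τ))) τ := fun τ hne =>
    ⟨ConjClasses.mk_eq_mk_iff_isConj.1 (hbase τ),
      fun h => hne (ConjClasses.mk_eq_mk_iff_isConj.2 h.symm)⟩
  have hg : ∀ σ : A, Subgroup.centralizer ({(σ : Perm (Fin n))} : Set (Perm (Fin n))) ≤ alternatingGroup (Fin n) →
      ct (g σ) = m' (σ : Perm (Fin n)).cycleType ∧ ∀ τ : A, g σ ≠ ConjClasses.mk (τ : Perm (Fin n)) := by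
    intro σ h
    obtain ⟨h1, h2⟩ := (hodd' σ h).choose_spec
    refine ⟨by simp only [g, dif_pos h]; exact h1, fun τ he => ?_⟩
    simp only [g, dif_pos h] at he
    have := (isConj_iff.1 (ConjClasses.mk_eq_mk_iff_isConj.1 he))
    obtain ⟨c, hc⟩ := this
    have hs := congrArg sign hc
    simp only [map_mul, map_inv, h2, mem_alternatingGroup.1 τ.2] at hs
    rw [mul_comm (sign c), mul_assoc, mul_inv_cancel, mul_one] at hs
    exact absurd hs (by decide)
  have hm'inj : ∀ σ τ : Perm (Fin n),
      Subgroup.centralizer ({σ} : Set (Perm (Fin n))) ≤ alternatingGroup (Fin n) →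
      Subgroup.centralizer ({τ} : Set (Perm (Fin n))) ≤ alternatingGroup (Fin n) →
      m' σ.cycleType = m' τ.cycleType → σ.cycleType = τ.cycleType := by
    intro σ τ hσ hτ he
    obtain ⟨hb, ho, -, h3, -⟩ := hbig σ hσ
    obtain ⟨hb', ho', -, h3', -⟩ := hbig τ hτ
    have e1 : big σ.cycleType - 1 = big τ.cycleType - 1 := by
      have h1 : big σ.cycleType - 1 ∈ m' τ.cycleType := he ▸ Multiset.mem_cons_self _ _
      rcases Multiset.mem_cons.1 h1 with h1 | h1
      · exact h1
      · obtain ⟨i, hi⟩ := ho' _ (Multiset.mem_of_mem_erase h1)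
        obtain ⟨j, hj⟩ := ho _ hb
        omega
    have e2 : big σ.cycleType = big τ.cycleType := by omega
    simp only [m'] at he
    rw [e1, Multiset.cons_inj_right] at he
    rw [← Multiset.cons_erase hb, ← Multiset.cons_erase hb', he, e2]
  have hFinj : Function.Injective F := by
    intro a b hab
    obtain ⟨x, rfl⟩ := ConjClasses.exists_rep a
    obtain ⟨y, rfl⟩ := ConjClasses.exists_rep b
    by_cases hx : ConjClasses.mk x = ConjClasses.mk (base (π (ConjClasses.mk x))) <;>
      by_cases hy : ConjClasses.mk y = ConjClasses.mk (base (π (ConjClasses.mk y)))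
    · simp only [F, if_pos hx, if_pos hy] at hab
      rw [hx, hy, hab]
    · simp only [F, if_pos hx, if_neg hy] at hab
      obtain ⟨hc, hn⟩ := hF2 y hy
      exact absurd hab.symm ((hg _ (hfib _ _ hc hn).2).2 x)
    · simp only [F, if_neg hx, if_pos hy] at hab
      obtain ⟨hc, hn⟩ := hF2 x hx
      exact absurd hab ((hg _ (hfib _ _ hc hn).2).2 y)
    · simp only [F, if_neg hx, if_neg hy] at hab
      obtain ⟨hcx, hnx⟩ := hF2 x hx
      obtain ⟨hcy, hny⟩ := hF2 y hy
      obtain ⟨htx, hsx⟩ := hfib _ _ hcx hnx
      obtain ⟨hty, hsy⟩ := hfib _ _ hcy hny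
      have e := congrArg ct hab
      rw [(hg _ hsx).1, (hg _ hsy).1] at e
      have hπ : π (ConjClasses.mk x) = π (ConjClasses.mk y) := by
        refine hctinj ?_
        have := hm'inj _ _ hsx hsy e
        rw [isConj_iff_cycleType_eq.1 hcx, isConj_iff_cycleType_eq.1 hcy] at this
        exact this
      refine ConjClasses.mk_eq_mk_iff_isConj.2 (htx.symm.trans ?_)
      convert hty using 3
      rw [hπ]
  have hns : ¬ Function.Surjective F := by
    intro hs
    obtain ⟨a, ha⟩ := hs (ConjClasses.mk t)
    obtain ⟨x, rfl⟩ := ConjClasses.exists_rep a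
    by_cases hx : ConjClasses.mk x = ConjClasses.mk (base (π (ConjClasses.mk x)))
    · simp only [F, if_pos hx] at ha
      obtain ⟨c, hc⟩ := isConj_iff.1 (ConjClasses.mk_eq_mk_iff_isConj.1 ha)
      have hs := congrArg sign hc
      simp only [map_mul, map_inv, ht, Subgroup.coe_subtype] at hs
      rw [mem_alternatingGroup.1 x.2] at hs
      rw [mul_one, mul_inv_cancel] at hs
      exact absurd hs (by decide)
    · simp only [F, if_neg hx] at ha
      obtain ⟨hc, hnc⟩ := hF2 x hx
      obtain ⟨-, hsp⟩ := hfib _ _ hc hnc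
      have e := congrArg ct ha
      rw [(hg _ hsp).1] at e
      obtain ⟨hb, -, hlow, h3, -⟩ := hbig _ hsp
      have hsum := congrArg Multiset.sum e
      simp only [m', Multiset.sum_cons] at hsum
      have h1 := congrArg Multiset.sum (Multiset.cons_erase hb)
      rw [Multiset.sum_cons] at h1
      have h2 : (ct (ConjClasses.mk t)).sum = 2 := by
        show t.cycleType.sum = 2
        rw [sum_cycleType, Perm.card_support_swap (by simp [Fin.ext_iff])]
      omega
  haveI := Fintype.ofFinite (ConjClasses A)
  haveI := Fintype.ofFinite (ConjClasses (Perm (Fin n)))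
  rw [Nat.card_eq_fintype_card, Nat.card_eq_fintype_card]
  exact Fintype.card_lt_of_injective_not_surjective F hFinj hns

end Cfsg.Agent.H88
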